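import Cfsg.Agent.WCLarge.Reduce
import Cfsg.Agent.WCLarge.TwoSimple
import Cfsg.Agent.WCLarge.NotR
import Cfsg.Agent.Fischer480.AllPieces
import Cfsg.Agent.Fischer891.FinalSym
import Cfsg.Agent.Fischer891.FinalO
import Cfsg.Agent.Fischer919.FinalU
import Cfsg.Agent.Fischer919.OmegaMain
import Cfsg.Agent.Fischer545.TEight
import Cfsg.Agent.LargeExtra.WCFinal
import Cfsg.Agent.LargeExtra.Nine.CaseOneMain
import Cfsg.Agent.LargeExtra.W2.NSBridge
import Cfsg.Agent.FixBN.BTheorem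
import Cfsg.Agent.S1675
import Cfsg.Agent.S0095

/-!
# S1760: the assembly
-/

set_option autoImplicit false

namespace Cfsg.Agent.WCLarge

open Cfsg.Agent.Co2Type.Quad Cfsg.Agent.LargeExtra Cfsg.Agent.LargeExtra.WC Cfsg.Agent.LargeExtra.Base
  Cfsg.Agent.LargeExtra.WCIrr

universe u

/-- the conclusion -/
def Concl (L : Type*) [Group L] : Prop :=
  (∃ (F : Type) (_ : Field F) (_ : Fintype F), Fintype.card F = 4 ∧ ∃ m : ℕ, 4 ≤ m ∧ Nonempty (L ≃* Cfsg.PSU m F 2)) ∨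
    Cfsg.Spor.IsoCo2 L ∨
    (∃ (F : Type) (_ : Field F) (_ : Fintype F), Fintype.card F = 3 ∧
      Nonempty (L ≃* Matrix.ProjectiveSpecialLinearGroup (Fin 4) F))

/-- `G` simple, `|Q| ≥ 2¹¹` -/
theorem psu_of_wide {G : Type u} [Group G] [Finite G] [IsSimpleGroup G] (hG : ¬ IsMulCommutative G)
    {Q : Subgroup G} {z : G} (h : Large Q z)
    (hQ : 2 ^ 11 ≤ Nat.card Q) (hwc : ∀ g : G, g * z * g⁻¹ ∈ Q → g * z * g⁻¹ = z) : Concl G := by
  have hnc : ∃ a b : G, a * b ≠ b * a := by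
    by_contra hcon
    push Not at hcon
    exact hG ⟨⟨hcon⟩⟩
  have hR : Cfsg.Agent.LargeExtra.WCIrr.NoRefl Q z :=
    Cfsg.Agent.LargeExtra.WCIrr.noRefl_of_index h (by omega) (fun H => Cfsg.Agent.LargeExtra.WCIrr.index_ne_two hnc H)
  have hz : z ∈ Cfsg.Agent.LargeExtra.WCIrr.cls z := ⟨1, by group⟩
  have hg := (Cfsg.Agent.LargeExtra.WCIrr.allN_of_wc h hQ hwc hR).geoN
  obtain ⟨x, y, a, b, H⟩ := Cfsg.Agent.Omega.Exit.Types.exists_four hG hg hz
  have hF := Cfsg.Agent.Fischer480.AllPieces.fgroup hnc (hg.isThree hG hz)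
  have R := Cfsg.Agent.Fischer891.Cases.rk_of_fgroup hF
  rcases Cfsg.Agent.Fischer480.AllPieces.inList hF with
    ⟨n, hn, h⟩ | ⟨n, hn, h⟩ | ⟨n, hn, h⟩ | ⟨n, hn, hU⟩ | ⟨n, hn, h⟩ | h | h | h
  · exact (Cfsg.Agent.Fischer891.FinalSym.not_simple_of_isSym R hn h).elim
  · exact (H.not_isSp h).elim
  · exact (Cfsg.Agent.Fischer891.FinalO.not_simple_of_isO R hn h).elim
  · obtain ⟨F, i1, i2, f, U⟩ := Cfsg.Agent.S0480U.UModel.exists_um hU
    have hFD := Cfsg.Agent.SporadicStructure.FischerSpace.fdata_of_class hF.cls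
    have hfin := U.fin
    obtain ⟨e, -⟩ := Cfsg.Agent.Fischer920.PsuEnd.exists_equiv_psu hFD
      (Cfsg.Agent.Fischer919.OmegaMain.center_eq_bot hnc)
      (Cfsg.Agent.Fischer919.FinalU.hyp_of_um U hn hFD) U.card U.herm U.dim hn f U.ne U.iso U.comm U.inj U.surj
    exact Or.inl ⟨F, i1, i2, U.card, n, hn, ⟨e⟩⟩
  · exact (NotR.not_isR H hn h).elim
  · exact (H.not_isT6 h).elim
  · exact (H.not_isT7 h).elim
  · exact (Cfsg.Agent.Fischer545.TEight.not_simple (hg.isThree hG hz) h inferInstance).elim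

/-- **`G` simple** -/
theorem simple_case {G : Type u} [Group G] [Finite G] [IsSimpleGroup G] (hnc : ¬ IsMulCommutative G) (z : G)
    (hz : orderOf z = 2)
    (hE : Cfsg.IsExtraspecial 2 ↥(Cfsg.generalizedFittingSubgroup ↥(Subgroup.centralizer ({z} : Set G))))
    (h32 : 32 ≤ Nat.card ↥(Cfsg.generalizedFittingSubgroup ↥(Subgroup.centralizer ({z} : Set G))))
    (hwc : ∀ g : G, g * z * g⁻¹ ∈ (Cfsg.generalizedFittingSubgroup ↥(Subgroup.centralizer ({z} : Set G))).map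
      (Subgroup.centralizer ({z} : Set G)).subtype → g * z * g⁻¹ = z) : Concl G := by
  have : Fact (Nat.Prime 2) := ⟨Nat.prime_two⟩
  have h := Base.large_of_genFitting z hz hE
  obtain ⟨n, -, hn⟩ := Cfsg.Agent.S0095.result hE
  have hcard : Nat.card ((Cfsg.generalizedFittingSubgroup ↥(Subgroup.centralizer ({z} : Set G))).map
      (Subgroup.centralizer ({z} : Set G)).subtype) = 2 ^ (2 * n + 1) := by
    rw [Subgroup.card_map_of_injective (Subgroup.centralizer ({z} : Set G)).subtype_injective, hn]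
  rw [hn] at h32
  have h5 : 5 ≤ 2 * n + 1 := by
    have h6 : 2 ^ 5 ≤ 2 ^ (2 * n + 1) := h32
    exact (Nat.pow_le_pow_iff_right (by norm_num)).1 h6
  rcases (by omega : n = 2 ∨ n = 3 ∨ n = 4 ∨ 5 ≤ n) with h2 | h2 | h2 | h2
  · subst h2
    rcases two_simple hnc z hz hE (by rw [hn]; norm_num) hwc with ⟨F, i1, i2, hF, he⟩ | h3
    · exact Or.inl ⟨F, i1, i2, hF, 4, le_rfl, he⟩
    · exact Or.inr (Or.inr h3)
  · subst h2
    obtain ⟨F, i1, i2, hF, he⟩ := psu5_of_weaklyClosed hnc h hcard hwc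
    exact Or.inl ⟨F, i1, i2, hF, 5, by norm_num, he⟩
  · subst h2
    rcases Cfsg.Agent.LargeExtra.Nine.CaseOneMain.caseOne hnc z hz hE hn hwc Cfsg.Agent.S1675.result with
      ⟨F, i1, i2, hF, he⟩ | h3
    · exact Or.inl ⟨F, i1, i2, hF, 6, by norm_num, he⟩
    · exact Or.inr (Or.inl h3)
  · refine psu_of_wide hnc h ?_ hwc
    rw [hcard]
    exact Nat.pow_le_pow_right (by norm_num) (by omega)

/-- the setting of the reduction -/
theorem setup_of {G : Type u} [Group G] [Finite G] (hO : Cfsg.oddCore G = ⊥) (z : G) (hz : orderOf z = 2)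
    (hE : Cfsg.IsExtraspecial 2 ↥(Cfsg.generalizedFittingSubgroup ↥(Subgroup.centralizer ({z} : Set G))))
    (hcen : z ∉ Subgroup.center G)
    (hwc : ∀ g : G, g * z * g⁻¹ ∈ (Cfsg.generalizedFittingSubgroup ↥(Subgroup.centralizer ({z} : Set G))).map
      (Subgroup.centralizer ({z} : Set G)).subtype → g * z * g⁻¹ = z) :
    Reduce.Setup ((Cfsg.generalizedFittingSubgroup ↥(Subgroup.centralizer ({z} : Set G))).map
      (Subgroup.centralizer ({z} : Set G)).subtype) z where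
  large := Base.large_of_genFitting z hz hE
  core := by
    intro N hN hnorm h2
    have hNC : N ≤ Subgroup.centralizer ({z} : Set G) := fun n hn =>
      Subgroup.mem_centralizer_singleton_iff.2 (hN n hn)
    have h3 : (N.subgroupOf (Subgroup.centralizer ({z} : Set G))).Normal :=
      ⟨fun n hn c => hnorm c (Subgroup.mem_centralizer_singleton_iff.1 c.2) n hn⟩
    have h4 : IsPGroup 2 (N.subgroupOf (Subgroup.centralizer ({z} : Set G))) :=
      h2.of_equiv (Subgroup.subgroupOfEquivOfLe hNC).symm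
    have h5 := TwoCentral.le_of_normal_two h3 h4
    intro n hn
    exact ⟨⟨n, hNC hn⟩, h5 hn, rfl⟩
  wc := hwc
  odd := by
    intro N hN hodd
    have h1 : N ≤ Cfsg.oddCore G := Cfsg.Agent.Lib.Cores.le_pPrimeCore hN hodd.coprime_two_right
    rw [hO] at h1
    exact le_bot_iff.1 h1
  ncen := by
    by_contra hcon
    push Not at hcon
    apply hcen
    rw [Subgroup.mem_center_iff]
    intro g
    have h1 := hcon g
    rw [mul_inv_eq_iff_eq_mul] at h1
    exact h1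

/-- transfer to a normal subgroup containing `Q` -/
theorem transfer {G : Type u} [Group G] [Finite G] (z : G) (hz : orderOf z = 2)
    (hE : Cfsg.IsExtraspecial 2 ↥(Cfsg.generalizedFittingSubgroup ↥(Subgroup.centralizer ({z} : Set G))))
    (h32 : 32 ≤ Nat.card ↥(Cfsg.generalizedFittingSubgroup ↥(Subgroup.centralizer ({z} : Set G))))
    (hwc : ∀ g : G, g * z * g⁻¹ ∈ (Cfsg.generalizedFittingSubgroup ↥(Subgroup.centralizer ({z} : Set G))).map
      (Subgroup.centralizer ({z} : Set G)).subtype → g * z * g⁻¹ = z)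
    (L : Subgroup G) (hn : L.Normal) (hs : IsSimpleGroup L) (hna : ¬ IsMulCommutative L) (hzL : z ∈ L)
    (hle : (Cfsg.generalizedFittingSubgroup ↥(Subgroup.centralizer ({z} : Set G))).map
      (Subgroup.centralizer ({z} : Set G)).subtype ≤ L) : Concl L := by
  obtain ⟨f⟩ := W2.NonSimple.fstar_equiv L hn z hzL
  have hinf : (Cfsg.generalizedFittingSubgroup ↥(Subgroup.centralizer ({z} : Set G))).map
    (Subgroup.centralizer ({z} : Set G)).subtype ⊓ L =
      (Cfsg.generalizedFittingSubgroup ↥(Subgroup.centralizer ({z} : Set G))).map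
    (Subgroup.centralizer ({z} : Set G)).subtype := inf_eq_left.2 hle
  have f2 : ↥(Cfsg.generalizedFittingSubgroup ↥(Subgroup.centralizer ({z} : Set G))) ≃*
      ↥(Cfsg.generalizedFittingSubgroup ↥(Subgroup.centralizer ({(⟨z, hzL⟩ : L)} : Set L))) :=
    (Subgroup.equivMapOfInjective _ _ (Subgroup.subtype_injective _)).trans
      ((MulEquiv.subgroupCongr hinf.symm).trans f.symm)
  refine simple_case hna (⟨z, hzL⟩ : L) ?_ (Cfsg.Agent.J2.ExtQuot.isExtraspecial_of_equiv f2 hE) ?_ ?_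
  · rw [← Subgroup.orderOf_coe]; exact hz
  · rw [← Nat.card_congr f2.toEquiv]; exact h32
  · intro g hg
    apply Subtype.ext
    apply hwc (g : G)
    have h1 : ((g * ⟨z, hzL⟩ * g⁻¹ : L) : G) ∈ ((Cfsg.generalizedFittingSubgroup
        ↥(Subgroup.centralizer ({(⟨z, hzL⟩ : L)} : Set L))).map
      (Subgroup.centralizer ({(⟨z, hzL⟩ : L)} : Set L)).subtype).map L.subtype := ⟨_, hg, rfl⟩
    rw [W2.NonSimple.fstar_inf L hn z hzL] at h1
    exact h1.1

/-- `Q ≤ L` -/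
theorem le_L {G : Type u} [Group G] [Finite G] {Q : Subgroup G} {z : G} (S : Reduce.Setup Q z)
    (L : Subgroup G) (hn : L.Normal) (hs : IsSimpleGroup L) (hna : ¬ IsMulCommutative L) (hzL : z ∈ L)
    (hex : ∃ g : G, g * z * g⁻¹ ≠ z ∧ z * (g * z * g⁻¹) = g * z * g⁻¹ * z)
    (h128 : 128 ≤ Nat.card Q) : Q ≤ L := by
  have h := S.large
  have hO : ∀ N : Subgroup (Subgroup.centralizer ({z} : Set G)), N.Normal → IsPGroup 2 N →
      ∀ x ∈ N, (x : G) ∈ Q := by
    intro N hN h2 x hx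
    refine S.core (N.map (Subgroup.centralizer ({z} : Set G)).subtype) ?_ ?_ (h2.map _) ⟨x, hx, rfl⟩
    · rintro _ ⟨y, -, rfl⟩
      exact Subgroup.mem_centralizer_singleton_iff.1 y.2
    · rintro c hc _ ⟨y, hy, rfl⟩
      exact ⟨_, hN.conj_mem y hy ⟨c, Subgroup.mem_centralizer_singleton_iff.2 hc⟩, rfl⟩
  obtain ⟨g, hg1, hg2⟩ := hex
  rcases irreducible_free h h128 hO S.wc ⟨g, hg1, hg2.symm⟩ (A := Q ⊓ L) ⟨h.z_mem, hzL⟩ inf_le_left
    (fun c hc x hx => ⟨h.conj_mem c hc x hx.1, hn.conj_mem x hx.2 c⟩) with h1 | h1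
  · exfalso
    apply hg1
    apply S.wc
    refine S.self_L L hn (hn.conj_mem z hzL g) hg2.symm fun q hq hqL => ?_
    rcases h1 q ⟨hq, hqL⟩ with h2 | h2
    · rw [h2, mul_one, one_mul]
    · rw [h2]; exact hg2.symm
  · exact inf_eq_left.1 h1

/-- the case `Q ∩ L ≅ 4 ∘ Q₈` does not occur -/
theorem four_false {G : Type u} [Group G] [Finite G] {Q L : Subgroup G} {z : G} (h : Large Q z)
    (hc : Nat.card Q = 32) (hn : L.Normal) (hzL : z ∈ L)
    (hwc : ∀ g : G, g * z * g⁻¹ ∈ Q → g * z * g⁻¹ = z)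
    (hex : ∃ g : G, g * z * g⁻¹ ≠ z ∧ z * (g * z * g⁻¹) = g * z * g⁻¹ * z) {e i j : G}
    (F : W2.NonSimple.Four Q L z e i j) : False := by
  obtain ⟨t, c⟩ := exists_good h (by rw [hc]; norm_num) hwc hex
  have B := WCIrr.base h hwc
  have hcQ : Nat.card (QQ Q z z) = 32 := by rw [QQ_self h]; exact hc
  have htL : t ∈ L := by
    obtain ⟨g, rfl⟩ := c.ht
    exact hn.conj_mem z hzL g
  have hti : t⁻¹ * z = z * t⁻¹ := by
    rw [inv_mul_eq_iff_eq_mul, ← mul_assoc, ← c.com, mul_inv_cancel_right]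
  -- conjugation by `t` on `Q ∩ L`
  have hcj : ∀ x, x ∈ Q → x ∈ L → t * x * t⁻¹ ∈ Q ∧ t * x * t⁻¹ ∈ L := fun x hx hxL =>
    ⟨h.conj_mem t c.com.symm x hx, hn.conj_mem x hxL t⟩
  have hcj' : ∀ x, x ∈ Q → x ∈ L → t⁻¹ * x * t ∈ Q ∧ t⁻¹ * x * t ∈ L := fun x hx hxL => by
    have h1 := h.conj_mem t⁻¹ hti x hx
    have h2 := hn.conj_mem x hxL t⁻¹
    rw [inv_inv] at h1 h2
    exact ⟨h1, h2⟩
  have hw : ∀ r, r ∈ Q → r ∈ L → (t * e * t⁻¹) * r = r * (t * e * t⁻¹) := by
    intro r hr hrL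
    have h1 := F.e_cent _ (hcj' r hr hrL).1 (hcj' r hr hrL).2
    calc (t * e * t⁻¹) * r = t * (e * (t⁻¹ * r * t)) * t⁻¹ := by group
      _ = t * ((t⁻¹ * r * t) * e) * t⁻¹ := by rw [h1]
      _ = r * (t * e * t⁻¹) := by group
  have hez : z * (e * z) * z⁻¹ = z * e := by group
  have h1z : ∀ x, x = 1 ∨ x = z → t * e * t⁻¹ = x → False := by
    intro x hx h1
    have h2 : e = x := by
      have h3 : e = t⁻¹ * x * t := by rw [← h1]; group
      rcases hx with h4 | h4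
      · rw [h3, h4]; group
      · rw [h3, h4, hti]; group
    have h3 := F.ee
    rw [h2] at h3
    rcases hx with h4 | h4
    · rw [h4, one_mul] at h3; exact h.z_ne h3.symm
    · rw [h4, h.z_sq] at h3; exact h.z_ne h3.symm
  have key : t * e * t⁻¹ = e ∨ t * e * t⁻¹ = e * z := by
    rcases F.cent _ (hcj e F.eQ F.eL).1 (hcj e F.eQ F.eL).2 (hw i F.iQ F.iL) (hw j F.jQ F.jL) with
      h1 | h1 | h1 | h1
    · exact (h1z 1 (Or.inl rfl) h1).elim
    · exact (h1z z (Or.inr rfl) h1).elim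
    · exact Or.inl h1
    · exact Or.inr h1
  have heQ : e ∈ QQ Q z z := by rw [QQ_self h]; exact F.eQ
  have h1 := sq_of_comm B c hcQ heQ key
  rw [F.ee] at h1
  exact h.z_ne h1

/-- **S1760**, with `z` not central and weakly closed. -/
theorem main {G : Type u} [Group G] [Finite G] (hO : Cfsg.oddCore G = ⊥) (z : G) (hz : orderOf z = 2)
    (hE : Cfsg.IsExtraspecial 2 ↥(Cfsg.generalizedFittingSubgroup ↥(Subgroup.centralizer ({z} : Set G))))
    (h32 : 32 ≤ Nat.card ↥(Cfsg.generalizedFittingSubgroup ↥(Subgroup.centralizer ({z} : Set G))))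
    (hcen : z ∉ Subgroup.center G)
    (hwc : ∀ g : G, g * z * g⁻¹ ∈ (Cfsg.generalizedFittingSubgroup ↥(Subgroup.centralizer ({z} : Set G))).map
      (Subgroup.centralizer ({z} : Set G)).subtype → g * z * g⁻¹ = z) :
    Subgroup.normalClosure ({z} : Set G) = Cfsg.generalizedFittingSubgroup G ∧
      Concl ↥(Cfsg.generalizedFittingSubgroup G) := by
  have S := setup_of hO z hz hE hcen hwc
  obtain ⟨hs, hna, hc⟩ := S.simple
  have hn : (Subgroup.normalClosure ({z} : Set G)).Normal := Subgroup.normalClosure_normal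
  have hF := Cfsg.Agent.FixBN.BTheorem.genFitting_eq hn hs hna hc
  refine ⟨hF.symm, ?_⟩
  rw [hF]
  have hzL : z ∈ Subgroup.normalClosure ({z} : Set G) := Subgroup.subset_normalClosure rfl
  have hna' : ∃ a b : ↥(Subgroup.normalClosure ({z} : Set G)), a * b ≠ b * a := by
    by_contra hcon
    push Not at hcon
    exact hna ⟨⟨hcon⟩⟩
  have hex : ∃ g : G, g * z * g⁻¹ ≠ z ∧ z * (g * z * g⁻¹) = g * z * g⁻¹ * z := by
    obtain ⟨g, h1, h2⟩ := W2.NonSimple.exists_commuting (⟨z, hzL⟩ : ↥(Subgroup.normalClosure ({z} : Set G)))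
      (by rw [← Subgroup.orderOf_coe]; exact hz) hna'
    exact ⟨g, fun h => h1 (Subtype.ext h), congrArg Subtype.val h2⟩
  apply transfer z hz hE h32 hwc _ hn hs hna hzL
  have : Fact (Nat.Prime 2) := ⟨Nat.prime_two⟩
  obtain ⟨n, -, hcn⟩ := Cfsg.Agent.S0095.result hE
  have hcard : Nat.card ((Cfsg.generalizedFittingSubgroup ↥(Subgroup.centralizer ({z} : Set G))).map
      (Subgroup.centralizer ({z} : Set G)).subtype) = 2 ^ (2 * n + 1) := by
    rw [Subgroup.card_map_of_injective (Subgroup.centralizer ({z} : Set G)).subtype_injective, hcn]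
  have h32' := h32
  rw [hcn] at h32'
  have h5 : 5 ≤ 2 * n + 1 := by
    have h6 : 2 ^ 5 ≤ 2 ^ (2 * n + 1) := h32'
    exact (Nat.pow_le_pow_iff_right (by norm_num)).1 h6
  rcases (by omega : n = 2 ∨ 3 ≤ n) with h2 | h2
  · subst h2
    have H := W2.NonSimple.hyp_of z hz hE (by rw [hcn]; norm_num) _ hn hs hna
    rcases W2.NonSimple.main H with h3 | ⟨e, i, j, h3⟩
    · exact h3
    · exact (four_false S.large (by rw [hcard]; norm_num) hn hzL hwc hex h3).elim
  · refine le_L S _ hn hs hna hzL hex ?_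
    rw [hcard]
    calc 128 = 2 ^ 7 := by norm_num
      _ ≤ 2 ^ (2 * n + 1) := Nat.pow_le_pow_right (by norm_num) (by omega)

end Cfsg.Agent.WCLarge
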