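import Cfsg.Agent.WCLarge.Refl
import Cfsg.Agent.LargeExtra.W2.Coord

/-!
# Good pairs, `|Q| = 32` (S1760)

`Base P Q`, `Good P p t`, `|Q p| = 32`: `W = [V, t]` is totally singular of order four and `W^⊥ = W`.
-/

set_option autoImplicit false

namespace Cfsg.Agent.WCLarge

open Cfsg.Agent.Co2Type.Quad Cfsg.Agent.LargeExtra.WC Cfsg.Agent.LargeExtra.Base Cfsg.Agent.LargeExtra.WCIrr
open Cfsg.Agent.LargeExtra

theorem sub_eq_of_card {V : Type*} [AddCommGroup V] [Module (ZMod 2) V] [Finite V] {U W : Submodule (ZMod 2) V}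
    (hle : U ≤ W) (hc : Nat.card W ≤ Nat.card U) : U = W := by
  have h1 : (W : Set V).ncard ≤ (U : Set V).ncard := hc
  exact SetLike.coe_injective (Set.eq_of_subset_of_ncard_le hle h1 (Set.toFinite _))

section good

variable {G : Type*} [Group G] {P : Set G} {Q : G → Subgroup G} {p t : G}

/-- `W = [V, t]` has two distinct nonzero vectors -/
theorem exists_pair_W [Finite G] (B : Base P Q) (c : Good P p t) :
    ∃ a ∈ QS.W (WCIrr.Com.T B c.toCom), ∃ b ∈ QS.W (WCIrr.Com.T B c.toCom), a ≠ 0 ∧ b ≠ 0 ∧ a ≠ b := by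
  obtain ⟨v, hv⟩ := WCIrr.Com.T_ne B c.toCom
  have hT := WCIrr.Com.T_inv B c.toCom
  by_contra hcon
  push Not at hcon
  have ha : WCIrr.Com.T B c.toCom v + v ≠ 0 := fun h => hv (eq_of_add h)
  have hW : ∀ w ∈ QS.W (WCIrr.Com.T B c.toCom), w = 0 ∨ w = WCIrr.Com.T B c.toCom v + v := by
    intro w hw
    by_cases hw0 : w = 0
    · exact Or.inl hw0
    · exact Or.inr (hcon _ (QS.f_mem_W _ v) w hw ha hw0).symm
  have h1 : WCIrr.Com.T B c.toCom = 1 := by
    refine TwoCentral.eq_one_of_fix_perp (B.large p c.hp) (a := WCIrr.Com.T B c.toCom v + v)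
      (c.q_W B (QS.f_mem_W _ v)) _ hT.iso ?_
    intro u hu
    rw [hT.fix_iff, QS.mem_perp]
    intro w hw
    rcases hW w hw with h | h
    · rw [h, map_zero]; rfl
    · rw [h]; exact hu
  exact hv (by rw [h1]; rfl)

/-- `W^⊥ = W` -/
theorem perp_W [Finite G] (B : Base P Q) (c : Good P p t) (hc : Nat.card (Q p) = 32) :
    (qs (B.large p c.hp)).perp (QS.W (WCIrr.Com.T B c.toCom)) = QS.W (WCIrr.Com.T B c.toCom) := by
  obtain ⟨a, ha, b, hb, ha0, hb0, hab⟩ := exists_pair_W B c
  have h1 := (qs (B.large p c.hp)).card_perp (QS.W (WCIrr.Com.T B c.toCom))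
  rw [W2.card_V (B.large p c.hp) hc] at h1
  have hle := (WCIrr.Com.T_inv B c.toCom).W_le
  have h3 : 4 ≤ Nat.card (QS.W (WCIrr.Com.T B c.toCom)) := by
    have hinj : Function.Injective (fun x : Bool × Bool =>
        (if x.1 then ⟨a, ha⟩ else 0) + (if x.2 then ⟨b, hb⟩ else 0) : Bool × Bool →
          QS.W (WCIrr.Com.T B c.toCom)) := by
      have hab' : a + b ≠ 0 := fun h => hab (eq_of_add h)
      rintro ⟨x, y⟩ ⟨x', y'⟩ h
      have h' : (if x then a else 0) + (if y then b else 0) = (if x' then a else 0) + (if y' then b else 0) := by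
        have h2 := congrArg Subtype.val h
        revert h2
        cases x <;> cases y <;> cases x' <;> cases y' <;> exact fun h => h
      clear h
      have ha0' := ha0.symm
      have hb0' := hb0.symm
      have hab'' := hab.symm
      have hab''' := hab'.symm
      cases x <;> cases y <;> cases x' <;> cases y' <;> simp_all
    have := Nat.card_le_card_of_injective _ hinj
    simpa using this
  apply le_antisymm _ hle
  have hcard : Nat.card ((qs (B.large p c.hp)).perp (QS.W (WCIrr.Com.T B c.toCom))) ≤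
      Nat.card (QS.W (WCIrr.Com.T B c.toCom)) := by
    by_contra hcon
    push Not at hcon
    have h5 : 4 * 5 ≤ Nat.card (QS.W (WCIrr.Com.T B c.toCom)) *
      Nat.card ((qs (B.large p c.hp)).perp (QS.W (WCIrr.Com.T B c.toCom))) :=
      Nat.mul_le_mul h3 (by omega)
    omega
  exact (sub_eq_of_card hle hcard).ge

/-- an element of `Q p` commuting with `t` modulo `⟨p⟩` is an involution modulo ... : elements of `C_{Q p}(t)` are
`1` or involutions -/
theorem sq_of_comm [Finite G] (B : Base P Q) (c : Good P p t) (hc : Nat.card (Q p) = 32) {x : G} (hx : x ∈ Q p)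
    (h : t * x * t⁻¹ = x ∨ t * x * t⁻¹ = x * p) : x * x = 1 := by
  have h1 := c.comm_of B h hx
  rw [← c.fix_iff B hx, perp_W B c hc] at h1
  exact (B.large p c.hp).q_eq_zero.1 (c.q_W B h1)

end good

section minus

open Cfsg.Agent.LargeExtra.W2

variable {G : Type*} [Group G] {Q : Subgroup G} {z i j k l : G}

theorem minus_form : ∀ a b c d a' b' c' d' : ZMod 2,
    a + b + a * b + c * d = 0 → a' + b' + a' * b' + c' * d' = 0 → a * b' + b * a' + (c * d' + d * c') = 0 →
    (a = 0 ∧ b = 0 ∧ c = 0 ∧ d = 0) ∨ (a' = 0 ∧ b' = 0 ∧ c' = 0 ∧ d' = 0) ∨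
      (a = a' ∧ b = b' ∧ c = c' ∧ d = d') := by
  decide

/-- type `-`: distinct singular vectors are not orthogonal -/
theorem minus_no_pair (h : Large Q z) (M : Minus Q z i j k l) {v w : h.V} (hv : h.q v = 0) (hw : h.q w = 0)
    (hb : h.b v w = 0) : v = 0 ∨ w = 0 ∨ v = w := by
  have hi : i ∈ Q := by rw [M.gen]; exact Subgroup.subset_closure (by simp)
  have hj : j ∈ Q := by rw [M.gen]; exact Subgroup.subset_closure (by simp)
  have hk : k ∈ Q := by rw [M.gen]; exact Subgroup.subset_closure (by simp)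
  have hl : l ∈ Q := by rw [M.gen]; exact Subgroup.subset_closure (by simp)
  have hbij := comb_bijective h M.card (x := ⟨i, hi⟩) (y := ⟨j, hj⟩) (u := ⟨k, hk⟩) (v := ⟨l, hl⟩)
    M.ji M.lk M.ki M.kj M.li M.lj
  have bxy : h.b (h.pr ⟨i, hi⟩) (h.pr ⟨j, hj⟩) = 1 := by
    rw [h.b_pr_one]; exact ac_symm h M.ji
  have byx : h.b (h.pr ⟨j, hj⟩) (h.pr ⟨i, hi⟩) = 1 := by rw [h.b_pr_one]; exact M.ji
  have buv : h.b (h.pr ⟨k, hk⟩) (h.pr ⟨l, hl⟩) = 1 := by
    rw [h.b_pr_one]; exact ac_symm h M.lk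
  have bvu : h.b (h.pr ⟨l, hl⟩) (h.pr ⟨k, hk⟩) = 1 := by rw [h.b_pr_one]; exact M.lk
  have bux : h.b (h.pr ⟨k, hk⟩) (h.pr ⟨i, hi⟩) = 0 := by rw [h.b_pr]; exact M.ki
  have buy : h.b (h.pr ⟨k, hk⟩) (h.pr ⟨j, hj⟩) = 0 := by rw [h.b_pr]; exact M.kj
  have bvx : h.b (h.pr ⟨l, hl⟩) (h.pr ⟨i, hi⟩) = 0 := by rw [h.b_pr]; exact M.li
  have bvy : h.b (h.pr ⟨l, hl⟩) (h.pr ⟨j, hj⟩) = 0 := by rw [h.b_pr]; exact M.lj
  have bxu : h.b (h.pr ⟨i, hi⟩) (h.pr ⟨k, hk⟩) = 0 := by rw [h.b_pr]; exact M.ki.symm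
  have byu : h.b (h.pr ⟨j, hj⟩) (h.pr ⟨k, hk⟩) = 0 := by rw [h.b_pr]; exact M.kj.symm
  have bxv : h.b (h.pr ⟨i, hi⟩) (h.pr ⟨l, hl⟩) = 0 := by rw [h.b_pr]; exact M.li.symm
  have byv : h.b (h.pr ⟨j, hj⟩) (h.pr ⟨l, hl⟩) = 0 := by rw [h.b_pr]; exact M.lj.symm
  have qx : h.q (h.pr ⟨i, hi⟩) = 1 := h.q_eq_one.2 M.ii
  have qy : h.q (h.pr ⟨j, hj⟩) = 1 := h.q_eq_one.2 M.jj
  have qu : h.q (h.pr ⟨k, hk⟩) = 0 := h.q_eq_zero.2 M.kk
  have qv : h.q (h.pr ⟨l, hl⟩) = 0 := h.q_eq_zero.2 M.ll
  have qs' : ∀ (a : ZMod 2) (w : h.V), h.q (a • w) = a * h.q w := by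
    intro a w
    rcases zm_cases a with ha | ha
    · rw [ha, zero_smul, zero_mul]; exact (qs h).q_zero
    · rw [ha, one_smul, one_mul]
  have qc : ∀ c : Fin 4 → ZMod 2, h.q (comb h ⟨i, hi⟩ ⟨j, hj⟩ ⟨k, hk⟩ ⟨l, hl⟩ c) =
      c 0 + c 1 + c 0 * c 1 + c 2 * c 3 := by
    intro c
    simp only [comb, h.q_add', qs', map_add, LinearMap.add_apply, map_smul, LinearMap.smul_apply, smul_eq_mul,
      qx, qy, qu, qv, bxy, buv, bxu, byu, bxv, byv, mul_one, mul_zero, add_zero, zero_add]
    ring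
  have bc : ∀ c c' : Fin 4 → ZMod 2, h.b (comb h ⟨i, hi⟩ ⟨j, hj⟩ ⟨k, hk⟩ ⟨l, hl⟩ c)
      (comb h ⟨i, hi⟩ ⟨j, hj⟩ ⟨k, hk⟩ ⟨l, hl⟩ c') =
      c 0 * c' 1 + c 1 * c' 0 + (c 2 * c' 3 + c 3 * c' 2) := by
    intro c c'
    simp only [comb, map_add, LinearMap.add_apply, map_smul, LinearMap.smul_apply, smul_eq_mul,
      bxy, byx, buv, bvu, bux, buy, bvx, bvy, bxu, byu, bxv, byv, h.b_self, mul_one, mul_zero, add_zero, zero_add]
    ring
  obtain ⟨c, rfl⟩ := hbij.2 v
  obtain ⟨c', rfl⟩ := hbij.2 w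
  rw [qc] at hv hw
  rw [bc] at hb
  rcases minus_form _ _ _ _ _ _ _ _ hv hw hb with ⟨h1, h2, h3, h4⟩ | ⟨h1, h2, h3, h4⟩ | ⟨h1, h2, h3, h4⟩
  · left; simp only [comb, h1, h2, h3, h4, zero_smul, add_zero]
  · right; left; simp only [comb, h1, h2, h3, h4, zero_smul, add_zero]
  · right; right
    congr 1
    funext t
    fin_cases t
    · exact h1
    · exact h2
    · exact h3
    · exact h4

end minus

section plus

open Cfsg.Agent.LargeExtra.W2

variable {G : Type*} [Group G] {Q : Subgroup G} {z i j k l : G}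

/-- involutions of `⟨i, j⟩ = C_Q(k, l)` -/
theorem q8_sq (P : Plus Q z i j k l) {x : G} (hx : x ∈ Q) (hk : x * k = k * x) (hl : x * l = l * x)
    (hxx : x * x = 1) : x = 1 ∨ x = z := by
  have hi : i ∈ Q := by rw [P.gen]; exact Subgroup.subset_closure (by simp)
  have hj : j ∈ Q := by rw [P.gen]; exact Subgroup.subset_closure (by simp)
  have h := P.large
  obtain ⟨r, hr, i', hi', j', hj', hxe, hri, hrj⟩ := exists_proj h hi hj P.ji hx
  have hki' : k * i' = i' * k := by
    rcases hi' with h1 | h1 <;> rw [h1]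
    · group
    · exact P.ki
  have hli' : l * i' = i' * l := by
    rcases hi' with h1 | h1 <;> rw [h1]
    · group
    · exact P.li
  have hkj' : k * j' = j' * k := by
    rcases hj' with h1 | h1 <;> rw [h1]
    · group
    · exact P.kj
  have hlj' : l * j' = j' * l := by
    rcases hj' with h1 | h1 <;> rw [h1]
    · group
    · exact P.lj
  have hrk : r * k = k * r := by
    have h1 : r = x * (i' * j')⁻¹ := by rw [hxe]; group
    have h2 : (i' * j')⁻¹ * k = k * (i' * j')⁻¹ := by
      rw [inv_mul_eq_iff_eq_mul, ← mul_assoc, eq_mul_inv_iff_mul_eq]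
      calc k * (i' * j') = (k * i') * j' := by group
        _ = i' * (k * j') := by rw [hki']; group
        _ = i' * j' * k := by rw [hkj']; group
    calc r * k = x * ((i' * j')⁻¹ * k) := by rw [h1]; group
      _ = (x * k) * (i' * j')⁻¹ := by rw [h2]; group
      _ = k * r := by rw [hk, h1]; group
  have hrl : r * l = l * r := by
    have h1 : r = x * (i' * j')⁻¹ := by rw [hxe]; group
    have h2 : (i' * j')⁻¹ * l = l * (i' * j')⁻¹ := by
      rw [inv_mul_eq_iff_eq_mul, ← mul_assoc, eq_mul_inv_iff_mul_eq]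
      calc l * (i' * j') = (l * i') * j' := by group
        _ = i' * (l * j') := by rw [hli']; group
        _ = i' * j' * l := by rw [hlj']; group
    calc r * l = x * ((i' * j')⁻¹ * l) := by rw [h1]; group
      _ = (x * l) * (i' * j')⁻¹ := by rw [h2]; group
      _ = l * r := by rw [hl, h1]; group
  have hrc : ∀ y ∈ Q, r * y = y * r := by
    intro y hy
    have hQC : Q ≤ Subgroup.centralizer ({r} : Set G) := by
      rw [P.gen, Subgroup.closure_le]
      rintro y (rfl | rfl | rfl | rfl)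
      · exact Subgroup.mem_centralizer_singleton_iff.2 hri.symm
      · exact Subgroup.mem_centralizer_singleton_iff.2 hrj.symm
      · exact Subgroup.mem_centralizer_singleton_iff.2 hrk.symm
      · exact Subgroup.mem_centralizer_singleton_iff.2 hrl.symm
    exact (Subgroup.mem_centralizer_singleton_iff.1 (hQC hy)).symm
  have hr1 := h.cent r hr hrc
  have hrr : r * r = 1 := by
    rcases hr1 with h1 | h1
    · rw [h1, one_mul]
    · rw [h1]; exact h.z_sq
  have hiz := h.comm_z i hi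
  have hjz := h.comm_z j hj
  have hw : (i' * j') * (i' * j') = 1 := by
    have h1 : r * (i' * j') = (i' * j') * r := by
      have hri' : r * i' = i' * r := by
        rcases hi' with h1 | h1 <;> rw [h1]
        · group
        · exact hri
      have hrj' : r * j' = j' * r := by
        rcases hj' with h1 | h1 <;> rw [h1]
        · group
        · exact hrj
      rw [← mul_assoc, hri', mul_assoc, hrj', mul_assoc]
    calc (i' * j') * (i' * j') = (r * r) * ((i' * j') * (i' * j')) := by rw [hrr, one_mul]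
      _ = r * (r * (i' * j')) * (i' * j') := by group
      _ = r * ((i' * j') * r) * (i' * j') := by rw [h1]
      _ = (r * (i' * j')) * (r * (i' * j')) := by group
      _ = x * x := by rw [hxe]; group
      _ = 1 := hxx
  rcases hi' with h1 | h1 <;> rcases hj' with h2 | h2
  · rw [h1, h2, mul_one, mul_one] at hxe
    rw [hxe]; exact hr1
  · exfalso
    rw [h1, h2, one_mul, P.jj] at hw
    exact h.z_ne hw
  · exfalso
    rw [h1, h2, mul_one, P.ii] at hw
    exact h.z_ne hw
  · exfalso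
    rw [h1, h2] at hw
    have h3 : (i * j) * (i * j) = z := by
      calc (i * j) * (i * j) = i * (j * i) * j := by group
        _ = i * (i * j * z) * j := by rw [P.ji]
        _ = (i * i) * j * (z * j) := by group
        _ = z * j * (j * z) := by rw [P.ii, hjz]
        _ = z * (j * j) * z := by group
        _ = z * (z * z) := by rw [P.jj]; group
        _ = z := by rw [h.z_sq, mul_one]
    rw [h3] at hw
    exact h.z_ne hw

theorem plus_swap (P : Plus Q z i j k l) : Plus Q z k l i j := by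
  refine ⟨P.large, P.card, ?_, P.kk, P.ll, P.ii, P.jj, P.lk, P.ji, P.ki.symm, P.kj.symm, P.li.symm, P.lj.symm⟩
  rw [P.gen]
  congr 1
  ext x
  simp only [Set.mem_insert_iff, Set.mem_singleton_iff]
  tauto

/-- conjugation by `t` of `⟨i, j⟩` -/
theorem comm_of_closure {PP : Set G} {QQ : G → Subgroup G} [Finite G] (B : Base PP QQ) {p t : G}
    (c : Good PP p t) (P : Plus (QQ p) p i j k l)
    (ht : ∀ x ∈ Subgroup.closure ({i, j} : Set G), t * x * t⁻¹ ∈ Subgroup.closure ({i, j} : Set G)) {x : G}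
    (hx : x ∈ Subgroup.closure ({i, j} : Set G)) : t * x = x * t := by
  have hEQ : Subgroup.closure ({i, j} : Set G) ≤ QQ p := by
    rw [P.gen]
    apply Subgroup.closure_mono
    rintro y (rfl | rfl)
    · simp
    · simp
  have hEk : Subgroup.closure ({i, j} : Set G) ≤ Subgroup.centralizer ({k} : Set G) := by
    rw [Subgroup.closure_le]
    rintro y (rfl | rfl)
    · exact Subgroup.mem_centralizer_singleton_iff.2 P.ki.symm
    · exact Subgroup.mem_centralizer_singleton_iff.2 P.kj.symm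
  have hEl : Subgroup.closure ({i, j} : Set G) ≤ Subgroup.centralizer ({l} : Set G) := by
    rw [Subgroup.closure_le]
    rintro y (rfl | rfl)
    · exact Subgroup.mem_centralizer_singleton_iff.2 P.li.symm
    · exact Subgroup.mem_centralizer_singleton_iff.2 P.lj.symm
  have hu : t * x * t⁻¹ * x⁻¹ ∈ Subgroup.closure ({i, j} : Set G) := mul_mem (ht x hx) (inv_mem hx)
  rcases q8_sq P (hEQ hu) (Subgroup.mem_centralizer_singleton_iff.1 (hEk hu))
    (Subgroup.mem_centralizer_singleton_iff.1 (hEl hu)) (c.sq_comm B (hEQ hx)) with h | h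
  · rw [mul_inv_eq_one, mul_inv_eq_iff_eq_mul] at h
    exact h
  · exact absurd h (c.ne_p B x)

/-- `t` does not normalise both `⟨i, j⟩` and `⟨k, l⟩` -/
theorem no_good_plus {PP : Set G} {QQ : G → Subgroup G} [Finite G] (B : Base PP QQ) {p t : G}
    (c : Good PP p t) (P : Plus (QQ p) p i j k l)
    (h1 : ∀ x ∈ Subgroup.closure ({i, j} : Set G), t * x * t⁻¹ ∈ Subgroup.closure ({i, j} : Set G))
    (h2 : ∀ x ∈ Subgroup.closure ({k, l} : Set G), t * x * t⁻¹ ∈ Subgroup.closure ({k, l} : Set G)) : False := by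
  have hi : t * i = i * t := comm_of_closure B c P h1 (Subgroup.subset_closure (by simp))
  have hj : t * j = j * t := comm_of_closure B c P h1 (Subgroup.subset_closure (by simp))
  have hk : t * k = k * t := comm_of_closure B c (plus_swap P) h2 (Subgroup.subset_closure (by simp))
  have hl : t * l = l * t := comm_of_closure B c (plus_swap P) h2 (Subgroup.subset_closure (by simp))
  have hQC : QQ p ≤ Subgroup.centralizer ({t} : Set G) := by
    rw [P.gen, Subgroup.closure_le]
    rintro y (rfl | rfl | rfl | rfl)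
    · exact Subgroup.mem_centralizer_singleton_iff.2 hi.symm
    · exact Subgroup.mem_centralizer_singleton_iff.2 hj.symm
    · exact Subgroup.mem_centralizer_singleton_iff.2 hk.symm
    · exact Subgroup.mem_centralizer_singleton_iff.2 hl.symm
  apply WCIrr.Com.notMem B c.toCom
  refine (B.large p c.hp).self t c.com.symm fun y hy => ?_
  exact (Subgroup.mem_centralizer_singleton_iff.1 (hQC hy)).symm

end plus

end Cfsg.Agent.WCLarge
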